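import Cfsg.Agent.CosetEnum.Fi24.Checked

/-!
Steps along a word in any group with letters over the presented Fi24 satisfying all relators but the
long one: the subgroup of all letters but the last is that of Fi24.
-/

set_option autoImplicit false
set_option maxRecDepth 8000

namespace CfsgLib.AutLf48.Relator

open CfsgLib.CosetEnum CfsgLib.CosetEnum.Fi24
open CfsgLib.CosetEnum.Fi24.Tab (runL lab)

/-- the relators but the long one -/
def relC : List (List ℕ) := relW.filter fun w => decide (w ≠ cW) && decide (w ≠ cW.reverse)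

theorem mem_relC {w : List ℕ} (hw : w ∈ relC) : w ∈ relW ∧ w ≠ cW ∧ w ≠ cW.reverse := by
  rw [relC, List.mem_filter, Bool.and_eq_true, decide_eq_true_eq, decide_eq_true_eq] at hw
  exact hw

/-- the letters other than the last -/
abbrev L11 : List ℕ := [0, 1, 2, 3, 4, 5, 6, 7, 8, 9, 10]

variable {P : Type*} [Group P]

/-- the subgroup of all letters but the last -/
abbrev Hv (v : ℕ → P) : Subgroup P := lsub v L11

/-- letters over those of the presented Fi24 -/
structure Lift (v : ℕ → P) (π : P →* Cfsg.Spor.Fi24) : Prop where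
  inv : ∀ x, v x = (v x)⁻¹
  proj : ∀ x, π (v x) = g12 x
  rel : ∀ w ∈ relC, gword v w = 1
  inj : ∀ b ∈ Hv v, π b = 1 → b = 1
  wl : Commute (gword v wlW) (v 11)

variable {v : ℕ → P} {π : P →* Cfsg.Spor.Fi24} (hL : Lift v π)
include hL

theorem Lift.gword_proj (w : List ℕ) : π (gword v w) = gword g12 w := by
  induction w with
  | nil => rw [gword_nil, gword_nil, map_one]
  | cons x w ih => rw [gword_cons, gword_cons, map_mul, ih, hL.proj]

theorem Lift.sq (x : ℕ) : v x * v x = 1 := by
  nth_rewrite 2 [hL.inv x]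
  rw [mul_inv_cancel]

theorem Lift.cut (x : ℕ) (a : P) : v x * (v x * a) = a := by
  rw [← mul_assoc, hL.sq, one_mul]

theorem Lift.eq_of_proj {a b : P} (ha : a ∈ Hv v) (hb : b ∈ Hv v) (e : π a = π b) : a = b := by
  have h1 := hL.inj (a⁻¹ * b) (mul_mem (inv_mem ha) hb) (by rw [map_mul, map_inv, e, inv_mul_cancel])
  exact (eq_of_inv_mul_eq_one h1)

omit hL in
theorem mem_Hv {w : List ℕ} (h : ∀ x ∈ w, x < 11) : gword v w ∈ Hv v :=
  lsub_word fun x hx => by have := h x hx; simp [L11]; omega

omit hL in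
theorem letter_mem_Hv {x : ℕ} (hx : x < 11) : v x ∈ Hv v :=
  Subgroup.subset_closure ⟨x, by simp [L11]; omega, rfl⟩

theorem Lift.map_lsub (keep : List ℕ) : (lsub v keep).map π = lsub g12 keep := by
  rw [lsub, lsub, MonoidHom.map_closure]
  refine congrArg Subgroup.closure (Set.ext fun z => ⟨?_, ?_⟩)
  · rintro ⟨_, ⟨x, hx, rfl⟩, rfl⟩
    exact ⟨x, hx, (hL.proj x).symm⟩
  · rintro ⟨x, hx, rfl⟩
    exact ⟨v x, ⟨x, hx, rfl⟩, hL.proj x⟩

theorem Lift.rel_mem (w : List ℕ) (h : relC.contains w = true) : gword v w = 1 :=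
  hL.rel w (List.contains_iff_mem.1 h)

theorem Lift.comm_letters {x y : ℕ} (h : relC.contains [x, y, x, y] = true) :
    v x * v y = v y * v x := by
  have e := hL.rel_mem _ h
  rw [gword_cons, gword_cons, gword_cons, gword_cons, gword_nil, mul_one, ← mul_assoc] at e
  rw [eq_inv_of_mul_eq_one_left e, mul_inv_rev, ← hL.inv, ← hL.inv]

theorem Lift.braid_letters {x y : ℕ} (h : relC.contains [x, y, x, y, x, y] = true) :
    v x * (v y * v x) = v y * (v x * v y) := by
  have e := hL.rel_mem _ h
  simp only [gword_cons, gword_nil, mul_one] at e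
  rw [← mul_assoc (v y), ← mul_assoc (v x)] at e
  rw [eq_inv_of_mul_eq_one_left (a := v x * (v y * v x)) (b := v y * (v x * v y))
    (by simpa only [mul_assoc] using e)]
  simp only [mul_inv_rev, ← hL.inv, mul_assoc]

/-- membership of a certified word, from a certificate of one coset -/
theorem Lift.orbit_mem {ep node next : ℕ → ℕ} {words : List (List ℕ)} {nr N : ℕ} {u : List ℕ}
    (hN : FactsChecked ep (fun y => y) words nr N) (h0 : node 0 = 0)
    (hp : PathsChecked ep (fun y => y) N [u] 1 node next 1 1) (keep keep' : List ℕ)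
    (h1 : wordsFrom (fun y => y) relC ((words.take nr).map fun w => w.map fun x => keep.getD x 12) = true)
    (h2 : (words.drop nr).all (fun w => w.all fun x => keep'.contains (keep.getD x 12)) = true) :
    gword v (u.map fun x => keep.getD x 12) ∈ lsub v keep' := by
  set g : ℕ → P := fun x => v (keep.getD x 12)
  have hg : ∀ w, gword g w = gword v (w.map fun x => keep.getD x 12) := fun w => by
    rw [gword, gword, List.map_map]; rfl
  have hb := gword_of_wordsFrom v (fun y => y) hL.inv h1 hL.rel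
  have hrel : ∀ (k : ℕ) (w : List ℕ), words[k]? = some w → k < nr → gword g w = 1 :=
    fun k w hk hlt => by
      rw [hg]
      exact hb _ (List.mem_map_of_mem (List.mem_of_getElem? (i := k)
        (by rw [List.getElem?_take, if_pos hlt, hk])))
  have hsub : ∀ (k : ℕ) (w : List ℕ), words[k]? = some w → gword g w ∈ lsub v keep' := by
    intro k w hk
    by_cases hlt : k < nr
    · rw [hrel k w hk hlt]; exact one_mem _
    · have hm : w ∈ words.drop nr := List.mem_of_getElem? (i := k - nr)
        (by rw [List.getElem?_drop, show nr + (k - nr) = k by omega, hk])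
      rw [hg]
      refine lsub_word fun y hy => ?_
      obtain ⟨x, hx, rfl⟩ := List.mem_map.1 hy
      exact List.contains_iff_mem.1 (List.all_eq_true.1 (List.all_eq_true.1 h2 w hm) x hx)
  have hr := relIndex_orbit_le hN Nat.one_pos h0 hp (lsub v keep') g (fun x => hL.inv _) hrel hsub
  rw [← hg]
  refine Subgroup.relIndex_eq_one.1 (le_antisymm hr.1 (Nat.pos_of_ne_zero hr.2)) ?_
  exact Subgroup.subset_closure ⟨u, List.mem_singleton_self u, rfl⟩

theorem Lift.mid_mem : gword v [11, 0, 1, 2, 3, 4, 5, 7, 3, 2, 4, 3, 7, 8, 7, 3, 2, 1, 0, 4, 3, 2, 1,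
    7, 3, 2, 4, 3, 10, 11, 0, 1, 2, 3, 7, 8, 4, 3, 7, 5, 4, 3, 2, 1, 0, 11] ∈ Hv v :=
  lsub_mono (keep' := [0, 1, 2, 3, 4, 5, 7, 8, 10]) (by decide)
    (hL.orbit_mem (u := Mid.orbitWords.headD []) Mid.facts Mid.node_zero Mid.paths
      [0, 1, 2, 3, 4, 5, 7, 8, 10, 11] _ (by decide +kernel) (by decide +kernel))

theorem Lift.fix4_mem : gword v ([11, 10, 0, 11] ++ fixW ++ [11, 0, 10, 11]) ∈ Hv v :=
  lsub_mono (keep' := [0, 1, 2, 3, 4, 5, 7, 10]) (by decide)
    (hL.orbit_mem (u := Fix4.orbitWords.headD []) Fix4.facts Fix4.node_zero Fix4.paths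
      [0, 1, 2, 3, 4, 5, 7, 10, 11] _ (by decide +kernel) (by decide +kernel))

omit hL in
/-- the letters fixing the fourth point -/
def Xv (v : ℕ → P) : Subgroup P :=
  lsub v [0, 2, 3, 4, 5, 6, 7, 8, 9, 10] ⊔ Subgroup.zpowers (gword v fixW)

omit hL in
theorem Xv_le : Xv v ≤ Hv v :=
  sup_le (lsub_mono (by decide)) (Subgroup.zpowers_le.2
    (mem_Hv (show ∀ x ∈ fixW, x < 11 by decide)))

theorem Lift.map_Xv : (Xv v).map π = X4 := by
  rw [Xv, Subgroup.map_sup, hL.map_lsub, MonoidHom.map_zpowers, hL.gword_proj, X4]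

theorem Lift.conj_Xv {a : P} (ha : a ∈ Xv v) :
    (gword v gW)⁻¹ * a * gword v gW ∈ Hv v := by
  have hmem : ∀ {a : P}, (gword v gW)⁻¹ * a * gword v gW ∈ Hv v →
      a ∈ (Hv v).comap (MulAut.conj (gword v gW)⁻¹).toMonoidHom := fun e => by
    rw [Subgroup.mem_comap]
    simpa [MulAut.conj_apply] using e
  have hrev : (gword v gW)⁻¹ = gword v gW.reverse := (wrev hL.inv gW).symm
  have hle : Xv v ≤ (Hv v).comap (MulAut.conj (gword v gW)⁻¹).toMonoidHom := by
    refine sup_le ?_ (Subgroup.zpowers_le.2 (hmem ?_))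
    · rw [lsub, Subgroup.closure_le]
      rintro _ ⟨x, hx, rfl⟩
      refine hmem ?_
      have key : ∀ {y : ℕ}, y < 11 → v x * gword v gW = gword v gW * v y →
          (gword v gW)⁻¹ * v x * gword v gW ∈ Hv v := fun hy e => by
        rw [mul_assoc, e, inv_mul_cancel_left]; exact letter_mem_Hv hy
      have hk : v 11 * (v 0 * v 11) = v 0 * (v 11 * v 0) :=
        hL.braid_letters (by decide +kernel)
      have hl : v 10 * (v 11 * v 10) = v 11 * (v 10 * v 11) :=
        hL.braid_letters (by decide +kernel)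
      have hal : v 0 * v 10 = v 10 * v 0 := hL.comm_letters (by decide +kernel)
      have hg : gword v gW = v 11 * (v 0 * (v 10 * v 11)) := by
        simp [gW, gword_cons, gword_nil]
      simp only [List.mem_cons, List.not_mem_nil, or_false] at hx
      rcases hx with rfl | hx
      · refine key (y := 10) (by omega) ?_
        rw [hg]
        calc v 0 * (v 11 * (v 0 * (v 10 * v 11)))
            = (v 0 * (v 11 * v 0)) * (v 10 * v 11) := by simp only [mul_assoc]
          _ = (v 11 * (v 0 * v 11)) * (v 10 * v 11) := by rw [hk]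
          _ = v 11 * (v 0 * (v 11 * (v 10 * v 11))) := by simp only [mul_assoc]
          _ = v 11 * (v 0 * (v 10 * (v 11 * v 10))) := by rw [← hl]
          _ = _ := by simp only [mul_assoc]
      by_cases h10 : x = 10
      · subst h10
        refine key (y := 0) (by omega) ?_
        rw [hg]
        calc v 10 * (v 11 * (v 0 * (v 10 * v 11)))
            = v 10 * (v 11 * ((v 0 * v 10) * v 11)) := by simp only [mul_assoc]
          _ = (v 10 * (v 11 * v 10)) * (v 0 * v 11) := by rw [hal]; simp only [mul_assoc]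
          _ = v 11 * (v 10 * (v 11 * (v 0 * v 11))) := by rw [hl]; simp only [mul_assoc]
          _ = v 11 * ((v 10 * v 0) * (v 11 * v 0)) := by rw [hk]; simp only [mul_assoc]
          _ = _ := by rw [← hal]; simp only [mul_assoc]
      · have hc : x ∈ [2, 3, 4, 5, 6, 7, 8, 9] := by simp; omega
        have c : ∀ y ∈ [11, 0, 10], v x * v y = v y * v x := fun y hy =>
          hL.comm_letters (List.all_eq_true.1 (List.all_eq_true.1
            (show [2, 3, 4, 5, 6, 7, 8, 9].all (fun x =>
              [11, 0, 10].all fun y => relC.contains [x, y, x, y]) = true by decide +kernel) x hc) y hy)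
        refine key (y := x) (by omega) ?_
        have : gword v gW ∈ Subgroup.centralizer ({v x} : Set P) :=
          gword_mem _ _ fun y hy => Subgroup.mem_centralizer_iff.2 fun z hz => by
            rw [Set.mem_singleton_iff.1 hz]
            exact c y ((show ∀ y ∈ gW, y ∈ [11, 0, 10] by decide) y hy)
        exact Subgroup.mem_centralizer_iff.1 this _ rfl
    · have e := hL.fix4_mem
      rw [wapp, wapp, ← show gW = [11, 0, 10, 11] from rfl,
        show ([11, 10, 0, 11] : List ℕ) = gW.reverse from rfl, ← hrev] at e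
      exact e
  have e := hle ha
  rw [Subgroup.mem_comap] at e
  simpa [MulAut.conj_apply] using e

omit hL in
/-- the two words give the same left coset -/
def SameV (v : ℕ → P) (a b : List ℕ) : Prop := (gword v a)⁻¹ * gword v b ∈ Hv v

omit hL in
theorem SameV.trans {a b c : List ℕ} (h1 : SameV v a b) (h2 : SameV v b c) : SameV v a c := by
  have := mul_mem h1 h2
  rwa [mul_assoc, mul_inv_cancel_left] at this

omit hL in
theorem SameV.symm {a b : List ℕ} (h : SameV v a b) : SameV v b a := by
  have := inv_mem h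
  rwa [mul_inv_rev, inv_inv] at this

omit hL in
theorem SameV.pre {a b : List ℕ} (u : List ℕ) (h : SameV v a b) : SameV v (u ++ a) (u ++ b) := by
  show _ ∈ Hv v
  rwa [wapp, wapp, mul_inv_rev, mul_assoc, inv_mul_cancel_left]

omit hL in
theorem SameV.of_small {w : List ℕ} (h : w.all (fun x => Nat.blt x 11) = true) : SameV v [] w := by
  show _ ∈ Hv v
  rw [gword_nil, inv_one, one_mul]
  exact mem_Hv fun x hx => by simpa [Nat.blt, Nat.ble_eq] using List.all_eq_true.1 h x hx

theorem Lift.of_word {a b : List ℕ} (h : gword v (a.reverse ++ b) ∈ Hv v) : SameV v a b := by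
  show _ ∈ Hv v
  rwa [← wrev hL.inv, ← wapp]

theorem Lift.id1 : SameV v [] (11 :: [11]) := by
  refine hL.of_word ?_
  simp [gword_cons, gword_nil, hL.sq, one_mem]

theorem Lift.id2 : SameV v ([10] ++ [11]) (11 :: ([10] ++ [11])) := by
  refine hL.of_word ?_
  have hl : v 10 * (v 11 * v 10) = v 11 * (v 10 * v 11) :=
    hL.braid_letters (by decide +kernel)
  simp only [List.reverse_append, List.reverse_cons, List.reverse_nil, List.nil_append,
    List.cons_append, gword_cons, gword_nil, mul_one]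
  rw [← hl, hL.cut, ← mul_assoc, hL.sq, one_mul]
  exact letter_mem_Hv (by omega)

theorem Lift.id3 : SameV v ([] ++ gW) (11 :: ([10, 0] ++ [11])) := by
  refine hL.of_word ?_
  have hal : v 0 * v 10 = v 10 * v 0 := hL.comm_letters (by decide +kernel)
  simp only [gW, List.reverse_cons, List.reverse_nil, List.nil_append, List.cons_append,
    gword_cons, gword_nil, mul_one]
  rw [hL.cut, ← mul_assoc (v 10) (v 0) (v 11), ← hal, mul_assoc, hL.cut, hL.cut, hL.sq]
  exact one_mem _

theorem Lift.id4 : SameV v ([0, 10] ++ [11]) (11 :: ([] ++ gW)) := by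
  refine hL.of_word ?_
  simp only [gW, List.reverse_cons, List.reverse_nil, List.nil_append, List.cons_append,
    gword_cons, gword_nil, mul_one]
  rw [hL.cut, hL.cut, hL.cut, hL.sq]
  exact one_mem _

theorem Lift.id5 : SameV v ([0, 1] ++ gW) (11 :: ([0, 1] ++ gW)) := by
  refine hL.of_word ?_
  have hk : v 0 * (v 11 * v 0) = v 11 * (v 0 * v 11) :=
    hL.braid_letters (by decide +kernel)
  have hb : v 0 * (v 1 * v 0) = v 1 * (v 0 * v 1) :=
    hL.braid_letters (by decide +kernel)
  have hkb : v 1 * v 11 = v 11 * v 1 := hL.comm_letters (by decide +kernel)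
  have hlb : v 1 * v 10 = v 10 * v 1 := hL.comm_letters (by decide +kernel)
  simp only [gW, List.reverse_cons, List.reverse_nil, List.nil_append, List.cons_append,
    gword_cons, gword_nil, mul_one]
  suffices e : v 11 * (v 10 * (v 0 * (v 11 * (v 1 * (v 0 * (v 11 * (v 0 * (v 1 *
      (v 11 * (v 0 * (v 10 * v 11))))))))))) = v 1 by rw [e]; exact letter_mem_Hv (by omega)
  calc v 11 * (v 10 * (v 0 * (v 11 * (v 1 * (v 0 * (v 11 * (v 0 * (v 1 *
        (v 11 * (v 0 * (v 10 * v 11)))))))))))
      = v 11 * (v 10 * (v 0 * (v 11 * (v 1 * ((v 0 * (v 11 * v 0)) * (v 1 *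
        (v 11 * (v 0 * (v 10 * v 11))))))))) := by simp only [mul_assoc]
    _ = v 11 * (v 10 * (v 0 * (v 11 * ((v 1 * v 11) * (v 0 * ((v 11 * v 1) *
        (v 11 * (v 0 * (v 10 * v 11))))))))) := by rw [hk]; simp only [mul_assoc]
    _ = v 11 * (v 10 * (v 0 * ((v 11 * v 11) * (v 1 * (v 0 * ((v 1 * (v 11 *
        v 11)) * (v 0 * (v 10 * v 11)))))))) := by
      rw [← hkb]; nth_rewrite 1 [hkb]; simp only [mul_assoc]
    _ = v 11 * (v 10 * (v 0 * ((v 1 * (v 0 * v 1)) * (v 0 * (v 10 * v 11))))) := by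
      rw [hL.sq, one_mul, mul_one]; simp only [mul_assoc]
    _ = v 11 * (v 10 * (v 1 * (v 10 * v 11))) := by
      rw [← hb]; simp only [mul_assoc, hL.cut]
    _ = v 1 := by
      rw [← mul_assoc (v 1) (v 10) (v 11), hlb, mul_assoc, hL.cut, hkb, hL.cut]

theorem Lift.id7 : SameV v (vMid ++ [11]) (11 :: (uMid ++ [11])) :=
  hL.of_word (by exact hL.mid_mem)

theorem Lift.comm_k {m : P} (hm : m ∈ lsub v L9) : m * v 11 = v 11 * m := by
  have hle : lsub v L9 ≤ Subgroup.centralizer ({v 11} : Set P) := by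
    rw [lsub, Subgroup.closure_le]
    rintro _ ⟨x, hx, rfl⟩
    refine Subgroup.mem_centralizer_iff.2 fun z hz => ?_
    rw [Set.mem_singleton_iff.1 hz]
    exact (hL.comm_letters (List.all_eq_true.1
      (show L9.all (fun x => relC.contains [x, 11, x, 11]) = true by decide +kernel) x hx)).symm
  exact (Subgroup.mem_centralizer_iff.1 (hle hm) _ rfl).symm

theorem Lift.fixK {a b : List ℕ} (hd : inMg (a.reverse ++ b) = true) :
    SameV v (a ++ [11]) (b ++ [11]) := by
  simp only [inMg, Bool.and_eq_true, Nat.beq_eq, List.all_eq_true, Nat.blt, Nat.ble_eq] at hd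
  obtain ⟨⟨hs, h1⟩, h5⟩ := hd
  have hm0 : gword g12 (a.reverse ++ b) ∈ Mg :=
    mem_Mg checksOK (gword_mem_Hs fun x hx => hs x hx) (Fin.ext (by rw [act_val]; exact h1))
      (by rw [act_val]; exact h5)
  rw [Mg, ← hL.map_lsub] at hm0
  obtain ⟨m, hm, e⟩ := hm0
  have hmH : m ∈ Hv v := lsub_mono (by decide) hm
  obtain rfl : m = gword v (a.reverse ++ b) :=
    hL.eq_of_proj hmH (mem_Hv fun x hx => hs x hx) (e.trans (hL.gword_proj _).symm)
  show _ ∈ Hv v
  rw [wapp, wapp, wone, mul_inv_rev, mul_assoc, ← mul_assoc _⁻¹ (gword v b), ← wrev hL.inv a,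
    ← wapp, hL.comm_k hm, inv_mul_cancel_left]
  exact hmH

theorem Lift.fixG {a b : List ℕ} (hd : inX4 (a.reverse ++ b) = true) :
    SameV v (a ++ gW) (b ++ gW) := by
  simp only [inX4, Bool.and_eq_true, Nat.beq_eq, List.all_eq_true, Nat.blt, Nat.ble_eq] at hd
  obtain ⟨hs, h4⟩ := hd
  have hm0 : gword g12 (a.reverse ++ b) ∈ X4 := by
    rw [← fix4_eq checksOK]
    exact (mem_fixIn checksOK).2 ⟨gword_mem_Hs fun x hx => hs x hx,
      Fin.ext (by rw [act_val]; exact h4)⟩
  rw [← hL.map_Xv] at hm0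
  obtain ⟨m, hm, e⟩ := hm0
  obtain rfl : m = gword v (a.reverse ++ b) :=
    hL.eq_of_proj (Xv_le hm) (mem_Hv fun x hx => hs x hx) (e.trans (hL.gword_proj _).symm)
  have hm' := hL.conj_Xv hm
  show _ ∈ Hv v
  rw [wapp, wrev hL.inv] at hm'
  rw [wapp, wapp, mul_inv_rev]
  simpa only [mul_assoc] using hm'

theorem Lift.comm_kM {m : List ℕ} (hm : m.all (fun x => L9.contains x) = true) (w : List ℕ) :
    gword v (11 :: (m ++ w)) = gword v (m ++ (11 :: w)) := by
  rw [gword_cons, wapp, wapp, gword_cons, ← mul_assoc, ← mul_assoc]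
  congr 1
  exact (hL.comm_k (lsub_word fun x hx =>
    List.contains_iff_mem.1 (List.all_eq_true.1 hm x hx))).symm

/-- one step through the last letter -/
theorem Lift.step {done hh rep m u u2 rep2 : List ℕ} (hs : SameV v (hh ++ rep) done)
    (hm : m.all (fun x => L9.contains x) = true) (hfix : SameV v ((m ++ u) ++ rep) (hh ++ rep))
    (hid : SameV v (u2 ++ rep2) (11 :: (u ++ rep))) : SameV v ((m ++ u2) ++ rep2) (11 :: done) := by
  refine SameV.trans ?_ ((hfix.trans hs).pre [11])
  rw [List.append_assoc m u2, List.append_assoc m u]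
  refine SameV.trans (hid.pre m) ?_
  show _ ∈ Hv v
  rw [show ([11] ++ (m ++ (u ++ rep))) = 11 :: (m ++ (u ++ rep)) from rfl, hL.comm_kM hm,
    inv_mul_cancel]
  exact one_mem _

theorem Lift.stepK {done hh m u u2 rep2 : List ℕ} (hs : SameV v (hh ++ [11]) done)
    (hm : m.all (fun x => L9.contains x) = true) (hd : inMg ((m ++ u).reverse ++ hh) = true)
    (hid : SameV v (u2 ++ rep2) (11 :: (u ++ [11]))) : SameV v ((m ++ u2) ++ rep2) (11 :: done) :=
  hL.step hs hm (hL.fixK hd) hid

theorem Lift.stepG {done hh m u u2 rep2 : List ℕ} (hs : SameV v (hh ++ gW) done)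
    (hm : m.all (fun x => L9.contains x) = true) (hd : inX4 ((m ++ u).reverse ++ hh) = true)
    (hid : SameV v (u2 ++ rep2) (11 :: (u ++ gW))) : SameV v ((m ++ u2) ++ rep2) (11 :: done) :=
  hL.step hs hm (hL.fixG hd) hid

omit hL in
/-- the first step through the last letter -/
theorem stepBaseV {done : List ℕ} (hd : done.all (fun x => Nat.blt x 11) = true) :
    SameV v ([] ++ [11]) (11 :: done) :=
  (SameV.of_small hd).pre [11]

end CfsgLib.AutLf48.Relator
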